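import Mathlib

set_option autoImplicit false

namespace Cfsg.Agent.Lib.Helper20

/-- A fixed-point-free automorphism which squares to the identity on an invariant subgroup
inverts that subgroup. -/
theorem inv_of_fpf {X : Type*} [Group X] [Finite X] (α : X ≃* X) (S : Subgroup X)
    (hS : ∀ x ∈ S, α x ∈ S) (h2 : ∀ x ∈ S, α (α x) = x) (hf : ∀ x ∈ S, α x = x → x = 1) :
    ∀ x ∈ S, α x = x⁻¹ := by
  let f : S → S := fun x => ⟨(x : X)⁻¹ * α x, S.mul_mem (S.inv_mem x.2) (hS x x.2)⟩
  have hinj : Function.Injective f := by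
    intro x y hxy
    have h : (x : X)⁻¹ * α x = (y : X)⁻¹ * α y := congrArg Subtype.val hxy
    have h1 : α ((y : X) * (x : X)⁻¹) = (y : X) * (x : X)⁻¹ := by
      rw [map_mul, map_inv]
      have : α (y : X) = (y : X) * ((x : X)⁻¹ * α x) := by rw [h]; group
      rw [this]; group
    have h3 := hf _ (S.mul_mem y.2 (S.inv_mem x.2)) h1
    apply Subtype.ext
    exact (mul_inv_eq_one.1 h3).symm
  have hsurj := Finite.surjective_of_injective hinj
  intro x hx
  obtain ⟨y, hy⟩ := hsurj ⟨x, hx⟩
  have hy' : (y : X)⁻¹ * α y = x := congrArg Subtype.val hy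
  rw [← hy', map_mul, map_inv, h2 y y.2]
  group

/-- the map `x ↦ x⁻¹ α(x)` is onto an invariant subgroup on which `α` is fixed point free. -/
theorem fpf_surj {X : Type*} [Group X] [Finite X] (α : X ≃* X) (S : Subgroup X)
    (hS : ∀ x ∈ S, α x ∈ S) (hf : ∀ x ∈ S, α x = x → x = 1) :
    ∀ x ∈ S, ∃ y ∈ S, y⁻¹ * α y = x := by
  let f : S → S := fun x => ⟨(x : X)⁻¹ * α x, S.mul_mem (S.inv_mem x.2) (hS x x.2)⟩
  have hinj : Function.Injective f := by
    intro x y hxy
    have h : (x : X)⁻¹ * α x = (y : X)⁻¹ * α y := congrArg Subtype.val hxy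
    have h1 : α ((y : X) * (x : X)⁻¹) = (y : X) * (x : X)⁻¹ := by
      rw [map_mul, map_inv]
      have : α (y : X) = (y : X) * ((x : X)⁻¹ * α x) := by rw [h]; group
      rw [this]; group
    have h3 := hf _ (S.mul_mem y.2 (S.inv_mem x.2)) h1
    apply Subtype.ext
    exact (mul_inv_eq_one.1 h3).symm
  have hsurj := Finite.surjective_of_injective hinj
  intro x hx
  obtain ⟨y, hy⟩ := hsurj ⟨x, hx⟩
  exact ⟨y, y.2, congrArg Subtype.val hy⟩

section frob

variable {H V : Type*} [Group H] [Finite H] [CommGroup V] [Finite V] [MulDistribMulAction H V]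

/-- Reindexing lemma: if `β` is fixed point free on the invariant subgroup `K`, then
`∏_{k ∈ K} (k⁻¹ β(k)) • w = ∏_{k ∈ K} k • w`. -/
theorem prod_twist (β : H ≃* H) (K : Subgroup H) [Fintype K]
    (hK : ∀ k ∈ K, β k ∈ K) (hf : ∀ k ∈ K, β k = k → k = 1) (w : V) :
    ∏ k : K, (((k : H)⁻¹ * β k) • w) = ∏ k : K, ((k : H) • w) := by
  let f : K → K := fun x => ⟨(x : H)⁻¹ * β x, K.mul_mem (K.inv_mem x.2) (hK x x.2)⟩
  have hinj : Function.Injective f := by
    intro x y hxy
    have h : (x : H)⁻¹ * β x = (y : H)⁻¹ * β y := congrArg Subtype.val hxy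
    have h1 : β ((y : H) * (x : H)⁻¹) = (y : H) * (x : H)⁻¹ := by
      rw [map_mul, map_inv]
      have : β (y : H) = (y : H) * ((x : H)⁻¹ * β x) := by rw [h]; group
      rw [this]; group
    have h3 := hf _ (K.mul_mem y.2 (K.inv_mem x.2)) h1
    apply Subtype.ext
    exact (mul_inv_eq_one.1 h3).symm
  have hbij : Function.Bijective f := ⟨hinj, Finite.surjective_of_injective hinj⟩
  exact Function.Bijective.prod_comp hbij (fun k : K => (k : H) • w)

/-- the "trace" `∏_{k ∈ K} k • w` is fixed by `K`. -/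
theorem smul_prod_fixed (K : Subgroup H) [Fintype K] (l : K) (w : V) :
    (l : H) • (∏ k : K, ((k : H) • w)) = ∏ k : K, ((k : H) • w) := by
  rw [Finset.smul_prod']
  have := Function.Bijective.prod_comp (Group.mulLeft_bijective l) (fun k : K => (k : H) • w)
  rw [← this]
  apply Finset.prod_congr rfl
  intro k _
  rw [← mul_smul]
  rfl

/-- **Frobenius averaging lemma** (order 4 version).  Let `σ` act on `H` and `s` on `V` compatibly,
`s` of order dividing 4 and fixed point free on `V`.  If `K ≤ H` is `σ`-invariant, `σ` is fixed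
point free on `K`, `σ²` inverts `K`, and `|K|` is prime to `|V|`, then `K` acts trivially on `V`. -/
theorem frob4 (σ : H ≃* H) (s : V ≃* V) (hcompat : ∀ (h : H) (v : V), s (h • v) = σ h • s v)
    (hσ4 : ∀ h, σ (σ (σ (σ h))) = h) (hs4 : ∀ v, s (s (s (s v))) = v)
    (hσf : ∀ h, σ h = h → h = 1) (hsf : ∀ v, s v = v → v = 1)
    (K : Subgroup H) (hKσ : ∀ k ∈ K, σ k ∈ K) (hKτ : ∀ k ∈ K, σ (σ k) = k⁻¹)
    (hcop : (Nat.card K).Coprime (Nat.card V)) : ∀ k ∈ K, ∀ v : V, k • v = v := by
  classical
  have : Fintype K := Fintype.ofFinite K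
  -- norm is trivial
  have hN : ∀ v : V, v * s v * s (s v) * s (s (s v)) = 1 := by
    intro v
    apply hsf
    rw [map_mul, map_mul, map_mul, hs4]
    exact by
      rw [mul_comm (s v * s (s v) * s (s (s v))) v, ← mul_assoc, ← mul_assoc]
  -- K is abelian
  have hKab : ∀ a ∈ K, ∀ b ∈ K, a * b = b * a := by
    intro a ha b hb
    have h1 := hKτ (a * b) (K.mul_mem ha hb)
    rw [map_mul, map_mul, hKτ a ha, hKτ b hb, mul_inv_rev] at h1
    have := congrArg (fun x => x⁻¹) h1
    simpa using this.symm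
  -- fixed point freeness of σ² and σ³ on K
  have hf2 : ∀ k ∈ K, (σ.trans σ) k = k → k = 1 := by
    intro k hk h
    have h' : σ (σ k) = k := h
    rw [hKτ k hk] at h'
    -- k⁻¹ = k
    have h3 : σ (k * σ k) = k * σ k := by
      rw [map_mul, hKτ k hk, h', hKab _ (hKσ k hk) k hk]
    have h4 := hσf _ h3
    have h5 : σ k = k := by
      have : σ k = k⁻¹ := eq_inv_of_mul_eq_one_right h4
      rw [this, h']
    exact hσf k h5
  have hf3 : ∀ k ∈ K, ((σ.trans σ).trans σ) k = k → k = 1 := by
    intro k _ h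
    have h' : σ (σ (σ k)) = k := h
    apply hσf
    have := congrArg σ h'
    rw [hσ4] at this
    exact this.symm
  intro l hl v
  have hkey : v ^ (Nat.card K) * (∏ k : K, ((k : H) • s v)) * (∏ k : K, ((k : H) • s (s v))) *
      (∏ k : K, ((k : H) • s (s (s v)))) = 1 := by
    have h1 : ∏ k : K, ((k : H)⁻¹ • ((k : H) • v * s ((k : H) • v) * s (s ((k : H) • v)) *
        s (s (s ((k : H) • v))))) = 1 := by
      apply Finset.prod_eq_one
      intro k _
      rw [hN, smul_one]
    rw [← h1]
    have h2 : ∀ k : K, ((k : H)⁻¹ • ((k : H) • v * s ((k : H) • v) * s (s ((k : H) • v)) *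
        s (s (s ((k : H) • v))))) = v * (((k : H)⁻¹ * σ k) • s v) *
        (((k : H)⁻¹ * (σ.trans σ) k) • s (s v)) *
        (((k : H)⁻¹ * ((σ.trans σ).trans σ) k) • s (s (s v))) := by
      intro k
      simp only [hcompat, smul_mul', inv_smul_smul, mul_smul, MulEquiv.trans_apply]
    simp only [h2]
    rw [Finset.prod_mul_distrib, Finset.prod_mul_distrib, Finset.prod_mul_distrib,
      prod_twist σ K hKσ (fun k _ => hσf k), prod_twist (σ.trans σ) K
        (fun k hk => hKσ _ (hKσ k hk)) hf2,
      prod_twist ((σ.trans σ).trans σ) K (fun k hk => hKσ _ (hKσ _ (hKσ k hk))) hf3,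
      Finset.prod_const, Finset.card_univ, Nat.card_eq_fintype_card]
  have hfix : l • (v ^ (Nat.card K)) = v ^ (Nat.card K) := by
    have h3 : v ^ (Nat.card K) = ((∏ k : K, ((k : H) • s v)) * (∏ k : K, ((k : H) • s (s v))) *
      (∏ k : K, ((k : H) • s (s (s v)))))⁻¹ := by
      rw [eq_inv_iff_mul_eq_one, ← hkey]
      simp only [mul_assoc]
    rw [h3, smul_inv', smul_mul', smul_mul', smul_prod_fixed K ⟨l, hl⟩, smul_prod_fixed K ⟨l, hl⟩,
      smul_prod_fixed K ⟨l, hl⟩]
  rw [smul_pow'] at hfix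
  exact (powCoprime hcop.symm).injective hfix

/-- a nontrivial finite solvable group has a nontrivial abelian characteristic subgroup. -/
theorem exists_char_abelian (H : Type*) [Group H] [Group.IsSolvable H] [Nontrivial H] :
    ∃ D : Subgroup H, D.Characteristic ∧ D ≠ ⊥ ∧ ∀ a ∈ D, ∀ b ∈ D, a * b = b * a := by
  classical
  have hex : ∃ n, derivedSeries H n = ⊥ := Group.IsSolvable.solvable
  have hn := Nat.find_spec hex
  have hn0 : Nat.find hex ≠ 0 := by
    intro h0
    rw [h0, derivedSeries_zero] at hn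
    exact top_ne_bot hn
  obtain ⟨m, hm⟩ := Nat.exists_eq_succ_of_ne_zero hn0
  refine ⟨derivedSeries H m, inferInstance, ?_, ?_⟩
  · exact Nat.find_min hex (by omega)
  · rw [hm, derivedSeries_succ, Subgroup.commutator_eq_bot_iff_le_centralizer] at hn
    intro a ha b hb
    exact (Subgroup.mem_centralizer_iff.1 (hn ha) b hb).symm

/-- **Key reduction.**  `H` solvable with a fixed point free automorphism `σ`, `σ⁴ = 1`, acting
faithfully on the abelian group `V`, on which `σ` acts compatibly (as `s`) and fixed point freely,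
and `V` irreducible under `H` and `s`.  Then `H` is abelian. -/
theorem fpf4_abelian [Group.IsSolvable H] (σ : H ≃* H) (s : V ≃* V)
    (hcompat : ∀ (h : H) (v : V), s (h • v) = σ h • s v)
    (hσ4 : ∀ h, σ (σ (σ (σ h))) = h) (hs4 : ∀ v, s (s (s (s v))) = v)
    (hσf : ∀ h, σ h = h → h = 1) (hsf : ∀ v, s v = v → v = 1)
    (hfaith : ∀ h : H, (∀ v : V, h • v = v) → h = 1)
    (hirr : ∀ W : Subgroup V, (∀ (h : H), ∀ w ∈ W, h • w ∈ W) → (∀ w ∈ W, s w ∈ W) →
      W = ⊥ ∨ W = ⊤) : ∀ a b : H, a * b = b * a := by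
  classical
  by_cases hH : Subsingleton H
  · intro a b; exact Subsingleton.elim _ _
  rw [not_subsingleton_iff_nontrivial] at hH
  -- V is nontrivial
  have hV : Nontrivial V := by
    by_contra hV
    rw [not_nontrivial_iff_subsingleton] at hV
    obtain ⟨h, hh⟩ := exists_ne (1 : H)
    exact hh (hfaith h (fun v => Subsingleton.elim _ _))
  -- centralizers in V of σ-invariant normal subgroups are invariant
  have hcent : ∀ B : Subgroup H, B.Normal → (∀ b ∈ B, σ b ∈ B) → B ≠ ⊥ →
      ∀ v : V, (∀ b ∈ B, b • v = v) → v = 1 := by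
    intro B hBn hBσ hB1
    let W : Subgroup V :=
      { carrier := {v | ∀ b ∈ B, b • v = v}
        mul_mem' := by
          intro x y hx hy b hb
          rw [smul_mul', hx b hb, hy b hb]
        one_mem' := fun b _ => smul_one b
        inv_mem' := by
          intro x hx b hb
          rw [smul_inv', hx b hb] }
    have hW := hirr W (by
      intro h w hw b hb
      have h1 := hw (h⁻¹ * b * h) (by
        have := hBn.conj_mem b hb h⁻¹
        simpa using this)
      calc b • h • w = h • ((h⁻¹ * b * h) • w) := by simp [mul_smul]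
        _ = h • w := by rw [h1]) (by
      intro w hw b hb
      have hb3 : σ (σ (σ b)) ∈ B := hBσ _ (hBσ _ (hBσ b hb))
      have h1 := hw _ hb3
      have h2 := congrArg s h1
      rw [hcompat, hσ4] at h2
      exact h2)
    rcases hW with hW | hW
    · intro v hv
      have : v ∈ W := hv
      rw [hW, Subgroup.mem_bot] at this
      exact this
    · exfalso
      apply hB1
      rw [eq_bot_iff]
      intro b hb
      rw [Subgroup.mem_bot]
      apply hfaith
      intro v
      have : v ∈ W := by rw [hW]; trivial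
      exact this b hb
  -- V has prime exponent p
  obtain ⟨p, hp, hpd⟩ := Nat.exists_prime_and_dvd (Finite.one_lt_card (α := V)).ne'
  have hpF : Fact p.Prime := ⟨hp⟩
  have hVp : ∀ v : V, v ^ p = 1 := by
    let W : Subgroup V := (powMonoidHom p : V →* V).ker
    have hmem : ∀ v : V, v ∈ W ↔ v ^ p = 1 := fun v => by
      rw [MonoidHom.mem_ker, powMonoidHom_apply]
    have hW := hirr W (by
      intro h w hw
      rw [hmem] at hw ⊢
      rw [← smul_pow', hw, smul_one]) (by
      intro w hw
      rw [hmem] at hw ⊢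
      rw [← map_pow, hw, map_one])
    rcases hW with hW | hW
    · exfalso
      obtain ⟨z, hz⟩ := exists_prime_orderOf_dvd_card' p hpd
      have hzW : z ∈ W := (hmem z).2 (by rw [← hz, pow_orderOf_eq_one])
      rw [hW, Subgroup.mem_bot] at hzW
      rw [hzW, orderOf_one] at hz
      exact hp.one_lt.ne hz
    · intro v
      exact (hmem v).1 (by rw [hW]; trivial)
  have hVpg : IsPGroup p V := fun v => ⟨1, by rw [pow_one]; exact hVp v⟩
  obtain ⟨m, hm⟩ := IsPGroup.iff_card.1 hVpg
  -- the abelian characteristic subgroup D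
  obtain ⟨D, hDc, hD1, hDab⟩ := exists_char_abelian H
  have hDn : D.Normal := inferInstance
  have hDσ : ∀ d ∈ D, σ d ∈ D := by
    intro d hd
    have := Subgroup.characteristic_iff_map_eq.1 hDc σ
    rw [← this]
    exact ⟨d, hd, rfl⟩
  -- p does not divide |D|
  have hDp : ¬ p ∣ Nat.card D := by
    intro hdvd
    let P : Subgroup H :=
      { carrier := {d | d ∈ D ∧ d ^ p = 1}
        mul_mem' := by
          rintro a b ⟨ha, ha'⟩ ⟨hb, hb'⟩
          refine ⟨D.mul_mem ha hb, ?_⟩
          have : Commute a b := hDab a ha b hb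
          rw [this.mul_pow, ha', hb', one_mul]
        one_mem' := ⟨D.one_mem, one_pow p⟩
        inv_mem' := by
          rintro a ⟨ha, ha'⟩
          exact ⟨D.inv_mem ha, by rw [inv_pow, ha', inv_one]⟩ }
    have hPn : P.Normal := by
      constructor
      rintro x ⟨hx, hx'⟩ g
      exact ⟨hDn.conj_mem x hx g, by rw [conj_pow, hx']; group⟩
    have hPσ : ∀ b ∈ P, σ b ∈ P := by
      rintro b ⟨hb, hb'⟩
      exact ⟨hDσ b hb, by rw [← map_pow, hb', map_one]⟩
    have hP1 : P ≠ ⊥ := by
      obtain ⟨z, hz⟩ := exists_prime_orderOf_dvd_card' p hdvd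
      intro h
      have hzP : (z : H) ∈ P := by
        refine ⟨z.2, ?_⟩
        have := pow_orderOf_eq_one z
        rw [hz] at this
        exact_mod_cast congrArg Subtype.val this
      rw [h, Subgroup.mem_bot] at hzP
      have : z = 1 := Subtype.ext hzP
      rw [this, orderOf_one] at hz
      exact hp.one_lt.ne hz
    have hPpg : IsPGroup p P := fun x => ⟨1, by
      rw [pow_one]
      exact Subtype.ext (by simpa using x.2.2)⟩
    obtain ⟨b, hb, hb1⟩ := hPpg.exists_fixed_point_of_prime_dvd_card_of_fixed_point (α := V) hpd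
      (a := 1) (fun x => smul_one _)
    apply hb1
    exact (hcent P hPn hPσ hP1 b (fun x hx => hb ⟨x, hx⟩)).symm
  have hcopD : (Nat.card D).Coprime (Nat.card V) := by
    rw [hm]
    exact Nat.Coprime.pow_right m ((Nat.Prime.coprime_iff_not_dvd hp).2 hDp).symm
  -- τ = σ² centralizes D
  have hτD : ∀ d ∈ D, σ (σ d) = d := by
    let B : Subgroup H :=
      { carrier := {d | d ∈ D ∧ σ (σ d) = d⁻¹}
        mul_mem' := by
          rintro a b ⟨ha, ha'⟩ ⟨hb, hb'⟩
          refine ⟨D.mul_mem ha hb, ?_⟩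
          rw [map_mul, map_mul, ha', hb', mul_inv_rev]
          exact hDab _ (D.inv_mem ha) _ (D.inv_mem hb)
        one_mem' := ⟨D.one_mem, by simp⟩
        inv_mem' := by
          rintro a ⟨ha, ha'⟩
          exact ⟨D.inv_mem ha, by rw [map_inv, map_inv, ha']⟩ }
    have hBD : B ≤ D := fun x hx => hx.1
    have hBtriv := frob4 σ s hcompat hσ4 hs4 hσf hsf B (by
      rintro k ⟨hk, hk'⟩
      exact ⟨hDσ k hk, by rw [hk', map_inv]⟩) (fun k hk => hk.2)
      (Nat.Coprime.coprime_dvd_left (Subgroup.card_dvd_of_le hBD) hcopD)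
    intro d hd
    have he : d * (σ (σ d))⁻¹ ∈ B := by
      refine ⟨D.mul_mem hd (D.inv_mem (hDσ _ (hDσ d hd))), ?_⟩
      rw [map_mul, map_mul, map_inv, map_inv, hσ4, mul_inv_rev, inv_inv]
    have h1 := hfaith _ (hBtriv _ he)
    exact (mul_inv_eq_one.1 h1).symm
  -- the fixed points of τ on H and V
  let C : Subgroup H :=
    { carrier := {h | σ (σ h) = h}
      mul_mem' := by
        intro a b ha hb
        change σ (σ (a * b)) = a * b
        rw [map_mul, map_mul, ha, hb]
      one_mem' := by simp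
      inv_mem' := by
        intro a ha
        change σ (σ a⁻¹) = a⁻¹
        rw [map_inv, map_inv, ha] }
  have hCinv : ∀ c ∈ C, σ c = c⁻¹ := inv_of_fpf σ C (by
    intro x hx
    change σ (σ (σ x)) = σ x
    rw [hx]) (fun x hx => hx) (fun x _ => hσf x)
  let Vp : Subgroup V :=
    { carrier := {v | s (s v) = v}
      mul_mem' := by
        intro a b ha hb
        change s (s (a * b)) = a * b
        rw [map_mul, map_mul, ha, hb]
      one_mem' := by simp
      inv_mem' := by
        intro a ha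
        change s (s a⁻¹) = a⁻¹
        rw [map_inv, map_inv, ha] }
  have hVpinv : ∀ w ∈ Vp, s w = w⁻¹ := inv_of_fpf s Vp (by
    intro x hx
    change s (s (s x)) = s x
    rw [hx]) (fun x hx => hx) (fun x _ => hsf x)
  -- c² fixes Vp
  have hsq : ∀ c ∈ C, ∀ w ∈ Vp, (c * c) • w = w := by
    intro c hc w hw
    have hcw : c • w⁻¹ ∈ Vp := by
      change s (s (c • w⁻¹)) = c • w⁻¹
      rw [hcompat, hcompat, map_inv, map_inv, hc, hw]
    have h1 := hVpinv _ hcw
    rw [hcompat, hCinv c hc, map_inv, hVpinv w hw, inv_inv, smul_inv', inv_inv] at h1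
    -- c⁻¹ • w = c • w
    rw [mul_smul, ← h1, smul_inv_smul]
  have hCfix : ∀ c ∈ C, ∀ w ∈ Vp, c • w = w := by
    intro c hc w hw
    have hodd : ¬ 2 ∣ orderOf c := by
      intro h2
      have ho := orderOf_pow_orderOf_div (orderOf_pos c).ne' h2
      set t := c ^ (orderOf c / 2) with ht
      have htC : t ∈ C := C.pow_mem hc _
      have ht2 : t * t = 1 := by rw [← pow_two, ← ho, pow_orderOf_eq_one]
      have h3 : σ t = t := by
        rw [hCinv t htC]
        exact inv_eq_of_mul_eq_one_left ht2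
      have h4 := hσf t h3
      rw [h4, orderOf_one] at ho
      omega
    obtain ⟨j, hj⟩ : ∃ j, orderOf c + 1 = 2 * j := ⟨(orderOf c + 1) / 2, by omega⟩
    have hc2 : c = (c * c) ^ j := by
      rw [← pow_two, ← pow_mul, ← hj, pow_succ, pow_orderOf_eq_one, one_mul]
    have : ∀ n : ℕ, (c * c) ^ n • w = w := by
      intro n
      induction n with
      | zero => simp
      | succ n ih => rw [pow_succ, mul_smul, hsq c hc w hw, ih]
    rw [hc2]; exact this j
  -- Vp is trivial
  have hVp1 : ∀ v : V, s (s v) = v → v = 1 := by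
    intro v hv
    exact hcent D hDn hDσ hD1 v (fun d hd => hCfix d (hτD d hd) v hv)
  have hτV : ∀ v : V, s (s v) = v⁻¹ := fun v =>
    inv_of_fpf (s.trans s) ⊤ (fun _ _ => trivial) (fun x _ => hs4 x) (fun x _ => hVp1 x) v trivial
  have hτH : ∀ h : H, σ (σ h) = h := by
    intro h
    have h1 : h⁻¹ * σ (σ h) = 1 := by
      apply hfaith
      intro v
      have h2 := hτV (h • v⁻¹)
      rw [hcompat, hcompat, hτV, inv_inv, smul_inv', inv_inv] at h2
      rw [mul_smul, h2, inv_smul_smul]
    exact (inv_mul_eq_one.1 h1).symm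
  intro a b
  have h1 := hCinv (a * b) (hτH _)
  rw [map_mul, hCinv a (hτH a), hCinv b (hτH b), mul_inv_rev] at h1
  have := congrArg (fun x => x⁻¹) h1
  simpa using this.symm

end frob

end Cfsg.Agent.Lib.Helper20
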