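import Mathlib
import Cfsg.Agent.Lib.Helper20.FpfAut

set_option autoImplicit false

namespace Cfsg.Agent.Lib.Helper20

universe u

open scoped commutatorElement

theorem quot_fpf {G : Type*} [Group G] [Finite G] (σ : G ≃* G) (N : Subgroup G) [N.Normal]
    (hN : N.map (σ : G →* G) = N) (hσf : ∀ g, σ g = g → g = 1) :
    ∀ q : G ⧸ N, QuotientGroup.congr N N σ hN q = q → q = 1 := by
  intro q
  induction q using QuotientGroup.induction_on with
  | H g =>
    intro h
    rw [QuotientGroup.congr_mk] at h
    have h1 : g⁻¹ * σ g ∈ N := by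
      have := QuotientGroup.eq.1 h.symm
      exact this
    have hNσ : ∀ x ∈ N, σ x ∈ N := fun x hx => by
      rw [← hN]; exact ⟨x, hx, rfl⟩
    obtain ⟨y, hy, hyg⟩ := fpf_surj σ N hNσ (fun x _ => hσf x) _ h1
    have h2 : σ (g * y⁻¹) = g * y⁻¹ := by
      rw [map_mul, map_inv]
      have : σ g = g * (y⁻¹ * σ y) := by rw [hyg]; group
      rw [this]; group
    have h3 := hσf _ h2
    have h4 : g = y := mul_inv_eq_one.1 h3
    rw [h4]
    exact (QuotientGroup.eq_one_iff y).2 hy

theorem quot_pow4 {G : Type*} [Group G] (σ : G ≃* G) (N : Subgroup G) [N.Normal]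
    (hN : N.map (σ : G →* G) = N) (hσ4 : ∀ g, σ (σ (σ (σ g))) = g) :
    ∀ q : G ⧸ N, QuotientGroup.congr N N σ hN (QuotientGroup.congr N N σ hN
      (QuotientGroup.congr N N σ hN (QuotientGroup.congr N N σ hN q))) = q := by
  intro q
  induction q using QuotientGroup.induction_on with
  | H g => simp only [QuotientGroup.congr_mk, hσ4]

theorem map_eq_of_forall {G : Type*} [Group G] [Finite G] (σ : G ≃* G) (N : Subgroup G)
    (h : ∀ x ∈ N, σ x ∈ N) : N.map (σ : G →* G) = N := by
  apply Subgroup.eq_of_le_of_card_ge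
  · rintro _ ⟨x, hx, rfl⟩
    exact h x hx
  · rw [Subgroup.card_map_of_injective σ.injective]

/-- If `V` is a minimal `σ`-invariant normal subgroup of the solvable group `G` (with `σ⁴ = 1`
fixed point free), then `G' ≤ C_G(V)`. -/
theorem commutator_le_centralizer_of_min {G : Type u} [Group G] [Finite G] [Group.IsSolvable G]
    (σ : G ≃* G) (hσ4 : ∀ g, σ (σ (σ (σ g))) = g) (hσf : ∀ g, σ g = g → g = 1)
    (V : Subgroup G) [hVn : V.Normal] (hVσ : ∀ x ∈ V, σ x ∈ V)
    (hVab : ∀ x ∈ V, ∀ y ∈ V, x * y = y * x)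
    (hmin : ∀ M : Subgroup G, M.Normal → (∀ x ∈ M, σ x ∈ M) → M ≤ V → M = ⊥ ∨ M = V) :
    commutator G ≤ Subgroup.centralizer (V : Set G) := by
  classical
  set D := Subgroup.centralizer (V : Set G) with hD
  have hDn : D.Normal := inferInstance
  have hDσ : ∀ d ∈ D, σ d ∈ D := by
    intro d hd
    rw [hD, Subgroup.mem_centralizer_iff] at hd ⊢
    intro v hv
    have hv3 : σ (σ (σ v)) ∈ V := hVσ _ (hVσ _ (hVσ v hv))
    have h1 := hd _ hv3
    have h2 := congrArg σ h1
    rw [map_mul, map_mul, hσ4] at h2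
    exact h2
  have hDmap := map_eq_of_forall σ D hDσ
  have hVmap := map_eq_of_forall σ V hVσ
  let instV : CommGroup ↥V :=
    { (inferInstance : Group ↥V) with
      mul_comm := fun a b => Subtype.ext (hVab a a.2 b b.2) }
  let ψ : G ⧸ D →* MulAut ↥V := QuotientGroup.lift D (MulAut.conjNormal (H := V)) (by
    intro d hd
    ext v
    rw [hD, Subgroup.mem_centralizer_iff] at hd
    have := hd v v.2
    simp only [MulAut.conjNormal_apply, MulAut.one_apply]
    rw [← this]; group)
  let instA : MulDistribMulAction (G ⧸ D) ↥V := MulDistribMulAction.compHom ↥V ψ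
  have hact : ∀ (g : G) (v : ↥V), (((g : G ⧸ D) • v : ↥V) : G) = g * v * g⁻¹ := by
    intro g v
    rfl
  let s : ↥V ≃* ↥V := (σ.subgroupMap V).trans (MulEquiv.subgroupCongr hVmap)
  have hs : ∀ v : ↥V, ((s v : ↥V) : G) = σ v := fun v => rfl
  have hab := fpf4_abelian (H := G ⧸ D) (V := ↥V) (QuotientGroup.congr D D σ hDmap) s (by
      intro q v
      induction q using QuotientGroup.induction_on with
      | H g =>
        apply Subtype.ext
        rw [QuotientGroup.congr_mk, hs, hact]
        erw [hact]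
        rw [hs, map_mul, map_mul, map_inv]) (quot_pow4 σ D hDmap hσ4) (by
      intro v
      apply Subtype.ext
      rw [hs, hs, hs, hs, hσ4]) (quot_fpf σ D hDmap hσf) (by
      intro v hv
      apply Subtype.ext
      apply hσf
      rw [← hs, hv]) (by
      intro q
      induction q using QuotientGroup.induction_on with
      | H g =>
        intro h
        rw [QuotientGroup.eq_one_iff, hD, Subgroup.mem_centralizer_iff]
        intro v hv
        have := congrArg Subtype.val (h ⟨v, hv⟩)
        rw [hact] at this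
        simp only at this
        rw [mul_inv_eq_iff_eq_mul] at this
        exact this.symm) (by
      intro W hWH hWs
      have hMn : (W.map V.subtype).Normal := by
        constructor
        rintro _ ⟨w, hw, rfl⟩ g
        exact ⟨(g : G ⧸ D) • w, hWH _ w hw, hact g w⟩
      rcases hmin (W.map V.subtype) hMn (by
        rintro _ ⟨w, hw, rfl⟩
        exact ⟨s w, hWs w hw, hs w⟩) (by
        rintro _ ⟨w, -, rfl⟩
        exact w.2) with h | h
      · left
        exact (Subgroup.map_eq_bot_iff_of_injective W V.subtype_injective).1 h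
      · right
        rw [eq_top_iff]
        intro v _
        have : (v : G) ∈ W.map V.subtype := by rw [h]; exact v.2
        obtain ⟨w, hw, hwv⟩ := this
        have : w = v := Subtype.ext hwv
        rw [← this]; exact hw)
  rw [commutator_eq_closure, Subgroup.closure_le]
  rintro _ ⟨a, b, rfl⟩
  change ⁅a, b⁆ ∈ D
  rw [← QuotientGroup.eq_one_iff, commutatorElement_def]
  have := hab (a : G ⧸ D) (b : G ⧸ D)
  simp only [QuotientGroup.mk_mul, QuotientGroup.mk_inv]
  rw [this]; group

/-- **Kovács.**  A finite solvable group with a fixed point free automorphism `σ`, `σ⁴ = 1`, has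
nilpotent derived subgroup. -/
theorem fpf4_main : ∀ (n : ℕ) (G : Type u) [Group G] [Finite G], Nat.card G = n →
    Group.IsSolvable G → ∀ σ : G ≃* G, (∀ g, σ (σ (σ (σ g))) = g) → (∀ g, σ g = g → g = 1) →
    Group.IsNilpotent (commutator G) := by
  intro n
  induction n using Nat.strong_induction_on with
  | _ n ih =>
  intro G _ _ hn hsol σ hσ4 hσf
  by_cases hG : Subsingleton G
  · infer_instance
  rw [not_subsingleton_iff_nontrivial] at hG
  obtain ⟨V, hV⟩ := (Set.toFinite {N : Subgroup G | N.Normal ∧ N ≠ ⊥ ∧ ∀ x ∈ N, σ x ∈ N}).exists_minimal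
    ⟨⊤, inferInstance, top_ne_bot, fun _ _ => trivial⟩
  obtain ⟨⟨hVn, hV1, hVσ⟩, hVmin⟩ := hV
  have hmin : ∀ M : Subgroup G, M.Normal → (∀ x ∈ M, σ x ∈ M) → M ≤ V → M = ⊥ ∨ M = V := by
    intro M hMn hMσ hMV
    by_cases hM : M = ⊥
    · exact Or.inl hM
    · exact Or.inr (le_antisymm hMV (hVmin ⟨hMn, hM, hMσ⟩ hMV))
  have hVmap := map_eq_of_forall σ V hVσ
  have hVab : ∀ x ∈ V, ∀ y ∈ V, x * y = y * x := by
    have h1 : ⁅V, V⁆ < V := Group.IsSolvable.commutator_lt_of_ne_bot hV1
    have h2 : ⁅V, V⁆ = ⊥ := by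
      rcases hmin ⁅V, V⁆ inferInstance (by
        intro x hx
        have : σ x ∈ (⁅V, V⁆).map (σ : G →* G) := ⟨x, hx, rfl⟩
        rw [Subgroup.map_commutator, hVmap] at this
        exact this) h1.le with h | h
      · exact h
      · exact absurd h h1.ne
    rw [Subgroup.commutator_eq_bot_iff_le_centralizer] at h2
    intro x hx y hy
    exact (Subgroup.mem_centralizer_iff.mp (h2 hx) y hy).symm
  have hcen := commutator_le_centralizer_of_min σ hσ4 hσf V hVσ hVab hmin
  have hlt : Nat.card (G ⧸ V) < n := by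
    rw [← hn, ← V.card_mul_index, Subgroup.index]
    have h1 : 1 < Nat.card V := by
      have : Nontrivial V := (Subgroup.nontrivial_iff_ne_bot V).2 hV1
      exact Finite.one_lt_card
    have h2 : 0 < Nat.card (G ⧸ V) := Nat.card_pos
    nlinarith
  have hIH : Group.IsNilpotent (commutator (G ⧸ V)) :=
    ih _ hlt (G ⧸ V) rfl inferInstance (QuotientGroup.congr V V σ hVmap)
      (quot_pow4 σ V hVmap hσ4) (quot_fpf σ V hVmap hσf)
  let f : commutator G →* commutator (G ⧸ V) :=
    ((QuotientGroup.mk' V).comp (commutator G).subtype).codRestrict (commutator (G ⧸ V)) (by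
      intro x
      have h0 : (commutator G).map (QuotientGroup.mk' V) ≤ commutator (G ⧸ V) := by
        rw [commutator_def, Subgroup.map_commutator]
        exact Subgroup.commutator_mono le_top le_top
      exact h0 ⟨x, x.2, rfl⟩)
  apply Subgroup.isNilpotent_of_ker_le_center f
  intro x hx
  rw [MonoidHom.mem_ker] at hx
  have hxV : (x : G) ∈ V := by
    have := congrArg Subtype.val hx
    exact (QuotientGroup.eq_one_iff (x : G)).1 this
  rw [Subgroup.mem_center_iff]
  intro y
  apply Subtype.ext
  have := Subgroup.mem_centralizer_iff.1 (hcen y.2) x hxV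
  exact this.symm

end Cfsg.Agent.Lib.Helper20
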