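import Cfsg.Agent.Lib.Helper5.UpperSeries2
import Cfsg.Agent.Lib.Helper5.PSolv
import Cfsg.Agent.Lib.Helper1.Fitting

set_option autoImplicit false

/-! # The upper `p`-series and `p`-length: closure properties -/

namespace Cfsg.Agent.Lib.Helper20

open Cfsg Cfsg.Agent.Lib.Helper5

variable {G : Type*} [Group G] {p : ℕ}

/-- the type of factor allowed at step `n`: a `p'`-factor for even `n`, a `p`-factor for odd `n`. -/
def StepOK (p n : ℕ) (k : ℕ) : Prop :=
  (Even n → k.Coprime p) ∧ (¬ Even n → ∃ m, k = p ^ m)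

theorem StepOK.one (p n : ℕ) : StepOK p n 1 :=
  ⟨fun _ => Nat.coprime_one_left p, fun _ => ⟨0, (pow_zero p).symm⟩⟩

theorem StepOK.mul {n a b : ℕ} (ha : StepOK p n a) (hb : StepOK p n b) : StepOK p n (a * b) := by
  refine ⟨fun h => Nat.Coprime.mul_left (ha.1 h) (hb.1 h), fun h => ?_⟩
  obtain ⟨m, rfl⟩ := ha.2 h
  obtain ⟨m', rfl⟩ := hb.2 h
  exact ⟨m + m', (pow_add p m m').symm⟩

theorem StepOK.of_dvd [hp : Fact p.Prime] {n a b : ℕ} (hb : StepOK p n b) (h : a ∣ b) :
    StepOK p n a := by
  refine ⟨fun he => Nat.Coprime.coprime_dvd_left h (hb.1 he), fun he => ?_⟩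
  obtain ⟨m, rfl⟩ := hb.2 he
  obtain ⟨j, _, hj⟩ := (Nat.dvd_prime_pow hp.out).mp h
  exact ⟨j, hj⟩

theorem StepOK.shift {n k : ℕ} (a : ℕ) (h : StepOK p n k) : StepOK p (2 * a + n) k := by
  have e : Even (2 * a + n) ↔ Even n := by simp [Nat.even_add]
  exact ⟨fun he => h.1 (e.mp he), fun he => h.2 (fun h' => he (e.mpr h'))⟩

/-- `W` is the `n`-th term of some normal series of alternating type. -/
inductive Reach (p : ℕ) : ℕ → Subgroup G → Prop
  | zero : Reach p 0 ⊥
  | step {n : ℕ} {W W' : Subgroup G} : Reach p n W → W ≤ W' → W'.Normal →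
      StepOK p n (W.relIndex W') → Reach p (n + 1) W'

theorem Reach.normal {n : ℕ} {W : Subgroup G} (h : Reach p n W) : W.Normal := by
  cases h with
  | zero => infer_instance
  | step _ _ hn _ => exact hn

theorem Reach.succ {n : ℕ} {W : Subgroup G} (h : Reach p n W) : Reach p (n + 1) W :=
  Reach.step h le_rfl h.normal (by rw [Subgroup.relIndex_self]; exact StepOK.one p n)

theorem Reach.merge {n : ℕ} {W W' : Subgroup G} (h : Reach p (n + 1) W) (hle : W ≤ W')
    (hn : W'.Normal) (hs : StepOK p n (W.relIndex W')) : Reach p (n + 1) W' := by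
  cases h with
  | step h0 hle0 _ hs0 =>
    refine Reach.step h0 (hle0.trans hle) hn ?_
    rw [← Subgroup.relIndex_mul_relIndex _ _ _ hle0 hle]
    exact hs0.mul hs

/-- Domination: the image of a series of alternating type lies in the upper `p`-series. -/
theorem Reach.map_le [Fact p.Prime] {H : Type*} [Group H] [Finite H] (f : G →* H)
    (hf : Function.Surjective f) {n : ℕ} {W : Subgroup G} (h : Reach p n W) :
    W.map f ≤ (upperPSeries p H n).1 := by
  induction h with
  | zero => rw [Subgroup.map_bot]; exact bot_le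
  | @step n W W' _ hle hn hs ih =>
    let g : G →* H ⧸ (upperPSeries p H n).1 := (QuotientGroup.mk' _).comp f
    have hg : Function.Surjective g := (QuotientGroup.mk'_surjective _).comp hf
    have hWker : W ≤ g.ker := by
      intro w hw
      rw [MonoidHom.mem_ker]
      show QuotientGroup.mk' _ (f w) = 1
      rw [← MonoidHom.mem_ker, QuotientGroup.ker_mk']
      exact ih ⟨w, hw, rfl⟩
    have hcard : StepOK p n (Nat.card (W'.map g)) := by
      rw [← Subgroup.relIndex_ker]
      exact hs.of_dvd (Subgroup.relIndex_dvd_of_le_left W' hWker)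
    have hnorm : (W'.map g).Normal := hn.map g hg
    have hmm : (W'.map f).map (QuotientGroup.mk' (upperPSeries p H n).1) = W'.map g :=
      Subgroup.map_map _ _ _
    by_cases he : Even n
    · rw [upperPSeries_succ_even n he, ← Subgroup.map_le_iff_le_comap, hmm]
      exact Cfsg.Agent.Lib.Helper1.le_pPrimeCore hnorm (hcard.1 he)
    · rw [upperPSeries_succ_odd n he, ← Subgroup.map_le_iff_le_comap, hmm]
      obtain ⟨m, hm⟩ := hcard.2 he
      exact Cfsg.Agent.Lib.Helper1.le_pCore hnorm (IsPGroup.of_card hm)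

theorem Reach.le_ups [Fact p.Prime] [Finite G] {n : ℕ} {W : Subgroup G} (h : Reach p n W) :
    W ≤ (upperPSeries p G n).1 := by
  have := h.map_le (MonoidHom.id G) Function.surjective_id
  rwa [Subgroup.map_id] at this

theorem ups_le_succ (n : ℕ) : (upperPSeries p G n).1 ≤ (upperPSeries p G (n + 1)).1 := by
  by_cases he : Even n
  · rw [upperPSeries_succ_even n he]
    conv_lhs => rw [← QuotientGroup.ker_mk' (upperPSeries p G n).1, ← MonoidHom.comap_bot]
    exact Subgroup.comap_mono bot_le
  · rw [upperPSeries_succ_odd n he]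
    conv_lhs => rw [← QuotientGroup.ker_mk' (upperPSeries p G n).1, ← MonoidHom.comap_bot]
    exact Subgroup.comap_mono bot_le

theorem ups_mono {m n : ℕ} (h : m ≤ n) : (upperPSeries p G m).1 ≤ (upperPSeries p G n).1 := by
  induction n, h using Nat.le_induction with
  | base => exact le_rfl
  | succ n _ ih => exact ih.trans (ups_le_succ n)

theorem stepOK_ups [Fact p.Prime] [Finite G] (n : ℕ) :
    StepOK p n ((upperPSeries p G n).1.relIndex (upperPSeries p G (n + 1)).1) := by
  have hs := QuotientGroup.mk'_surjective (upperPSeries p G n).1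
  have key : (upperPSeries p G n).1.relIndex (upperPSeries p G (n + 1)).1 =
      Nat.card ((upperPSeries p G (n + 1)).1.map (QuotientGroup.mk' (upperPSeries p G n).1)) := by
    rw [← Subgroup.relIndex_ker, QuotientGroup.ker_mk']
  rw [key]
  refine ⟨fun he => ?_, fun he => ?_⟩
  · rw [upperPSeries_succ_even n he, Subgroup.map_comap_eq_self_of_surjective hs]
    exact Cfsg.Agent.Lib.Helper1.pPrimeCore_coprime p
  · rw [upperPSeries_succ_odd n he, Subgroup.map_comap_eq_self_of_surjective hs]
    exact IsPGroup.iff_card.mp (Cfsg.Agent.Lib.Helper1.pCore_isPGroup p)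

theorem reach_ups [Fact p.Prime] [Finite G] (n : ℕ) : Reach p n (upperPSeries p G n).1 := by
  induction n with
  | zero => rw [upperPSeries_zero]; exact Reach.zero
  | succ n ih => exact Reach.step ih (ups_le_succ n) inferInstance (stepOK_ups n)

theorem ups_map_le [Fact p.Prime] [Finite G] {H : Type*} [Group H] [Finite H] (f : G →* H)
    (hf : Function.Surjective f) (n : ℕ) :
    (upperPSeries p G n).1.map f ≤ (upperPSeries p H n).1 :=
  (reach_ups n).map_le f hf

theorem ups_characteristic [Fact p.Prime] [Finite G] (n : ℕ) :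
    (upperPSeries p G n).1.Characteristic := by
  rw [Subgroup.characteristic_iff_map_le]
  intro φ
  exact ups_map_le φ.toMonoidHom φ.surjective n

theorem ups_one [Fact p.Prime] [Finite G] : (upperPSeries p G 1).1 = pPrimeCore p G := by
  apply le_antisymm
  · apply Cfsg.Agent.Lib.Helper1.le_pPrimeCore inferInstance
    have := (stepOK_ups (p := p) (G := G) 0).1 (by simp)
    rwa [upperPSeries_zero, Subgroup.relIndex_bot_left] at this
  · apply Reach.le_ups
    refine Reach.step Reach.zero bot_le (Cfsg.Agent.Lib.Helper1.pPrimeCore_normal p) ?_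
    rw [Subgroup.relIndex_bot_left]
    exact ⟨fun _ => Cfsg.Agent.Lib.Helper1.pPrimeCore_coprime p, fun h => absurd (by simp) h⟩

/-- `p`-length passes to quotients. -/
theorem plen_of_surjective [Fact p.Prime] [Finite G] {H : Type*} [Group H] [Finite H] (f : G →* H)
    (hf : Function.Surjective f) {k : ℕ} (h : PLengthLE p k G) : PLengthLE p k H := by
  have := ups_map_le (p := p) f hf (2 * k + 1)
  rw [show (upperPSeries p G (2 * k + 1)).1 = ⊤ from h, ← MonoidHom.range_eq_map,
    MonoidHom.range_eq_top.mpr hf] at this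
  exact top_le_iff.mp this

theorem plen_mono {k k' : ℕ} (hk : k ≤ k') (h : PLengthLE p k G) : PLengthLE p k' G := by
  have := ups_mono (p := p) (G := G) (show 2 * k + 1 ≤ 2 * k' + 1 by omega)
  rw [show (upperPSeries p G (2 * k + 1)).1 = ⊤ from h] at this
  exact top_le_iff.mp this

theorem Reach.subgroupOf [Fact p.Prime] (K : Subgroup G) {n : ℕ} {W : Subgroup G}
    (h : Reach p n W) : Reach p n (W.subgroupOf K) := by
  induction h with
  | zero => rw [Subgroup.bot_subgroupOf]; exact Reach.zero
  | @step n W W' h0 hle hn hs ih =>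
    have hWn : W.Normal := h0.normal
    refine Reach.step ih (Subgroup.comap_mono hle) (hn.subgroupOf K) ?_
    rw [← Subgroup.inf_subgroupOf_right W' K, Subgroup.relIndex_subgroupOf inf_le_right]
    exact hs.of_dvd (relIndex_dvd_relIndex_of_le inf_le_left)

/-- `p`-length passes to subgroups. -/
theorem plen_subgroup [Fact p.Prime] [Finite G] (K : Subgroup G) {k : ℕ} (h : PLengthLE p k G) :
    PLengthLE p k ↥K := by
  have := ((reach_ups (p := p) (G := G) (2 * k + 1)).subgroupOf K).le_ups
  rw [show (upperPSeries p G (2 * k + 1)).1 = ⊤ from h, Subgroup.top_subgroupOf] at this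
  exact top_le_iff.mp this

theorem reach_map_subtype [Fact p.Prime] [Finite G] (N : Subgroup G) [N.Normal] (n : ℕ) :
    Reach p n ((upperPSeries p ↥N n).1.map N.subtype) := by
  induction n with
  | zero => rw [upperPSeries_zero, Subgroup.map_bot]; exact Reach.zero
  | succ n ih =>
    have hc := ups_characteristic (p := p) (G := ↥N) (n + 1)
    refine Reach.step ih (Subgroup.map_mono (ups_le_succ n))
      ConjAct.normal_of_characteristic_of_normal ?_
    rw [Subgroup.relIndex_map_map_of_injective _ _ N.subtype_injective]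
    exact stepOK_ups n

/-- `p`-length is subadditive on extensions. -/
theorem plen_add [Fact p.Prime] [Finite G] (N : Subgroup G) [N.Normal] {a b : ℕ}
    (hN : PLengthLE p a ↥N) (hQ : PLengthLE p b (G ⧸ N)) : PLengthLE p (a + b) G := by
  have hs := QuotientGroup.mk'_surjective N
  have hstep : ∀ m, StepOK p (2 * a + m)
      (((upperPSeries p (G ⧸ N) m).1.comap (QuotientGroup.mk' N)).relIndex
        ((upperPSeries p (G ⧸ N) (m + 1)).1.comap (QuotientGroup.mk' N))) := by
    intro m
    rw [Subgroup.relIndex_comap, Subgroup.map_comap_eq_self_of_surjective hs]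
    exact (stepOK_ups m).shift a
  have h1 : Reach p (2 * a + 1) N := by
    have := reach_map_subtype (p := p) N (2 * a + 1)
    rwa [show (upperPSeries p ↥N (2 * a + 1)).1 = ⊤ from hN, ← MonoidHom.range_eq_map,
      Subgroup.range_subtype] at this
  have h0 : (upperPSeries p (G ⧸ N) 0).1.comap (QuotientGroup.mk' N) = N := by
    rw [upperPSeries_zero, MonoidHom.comap_bot, QuotientGroup.ker_mk']
  have h2 : ∀ m, Reach p (2 * a + (m + 1))
      ((upperPSeries p (G ⧸ N) (m + 1)).1.comap (QuotientGroup.mk' N)) := by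
    intro m
    induction m with
    | zero =>
      have hs0 := hstep 0
      rw [h0] at hs0
      refine Reach.merge h1 ?_ inferInstance hs0
      conv_lhs => rw [← h0]
      exact Subgroup.comap_mono (ups_le_succ 0)
    | succ m ih =>
      exact Reach.step ih (Subgroup.comap_mono (ups_le_succ (m + 1))) inferInstance (hstep (m + 1))
  have h3 := (h2 (2 * b)).le_ups
  rw [show (upperPSeries p (G ⧸ N) (2 * b + 1)).1 = ⊤ from hQ, Subgroup.comap_top] at h3
  show (upperPSeries p G (2 * (a + b) + 1)).1 = ⊤
  rw [show 2 * (a + b) + 1 = 2 * a + (2 * b + 1) by ring]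
  exact top_le_iff.mp h3

theorem plen_zero_of_coprime [Fact p.Prime] [Finite G] (h : (Nat.card G).Coprime p) :
    PLengthLE p 0 G := by
  have : Reach p 1 (⊤ : Subgroup G) := by
    refine Reach.step Reach.zero bot_le inferInstance ?_
    rw [Subgroup.relIndex_bot_left, Subgroup.card_top]
    exact ⟨fun _ => h, fun h' => absurd (by simp) h'⟩
  exact top_le_iff.mp this.le_ups

/-- removing `O_{p',p}` lowers the `p`-length. -/
theorem plen_quot_two {k : ℕ} (h : PLengthLE p (k + 1) G) :
    PLengthLE p k (G ⧸ (upperPSeries p G 2).1) := by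
  have h' : (upperPSeries p G (2 * k + 1 + 2)).1 = ⊤ := h
  rw [upperPSeries_shift] at h'
  have hs := QuotientGroup.mk'_surjective (upperPSeries p G 2).1
  apply Subgroup.comap_injective hs
  rw [Subgroup.comap_top]
  exact h'

theorem sylow_le_of_index_coprime [Fact p.Prime] [Finite G] (M : Subgroup G) [M.Normal]
    (hM : M.index.Coprime p) (S : Sylow p G) : (S : Subgroup G) ≤ M := by
  intro s hs
  obtain ⟨k, hk⟩ := S.2 ⟨s, hs⟩
  have hk' : s ^ p ^ k = 1 := congrArg Subtype.val hk
  have h1 : orderOf (QuotientGroup.mk' M s) ∣ p ^ k := by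
    apply orderOf_dvd_of_pow_eq_one
    rw [← map_pow, hk', map_one]
  have h2 : orderOf (QuotientGroup.mk' M s) ∣ M.index := by
    rw [Subgroup.index_eq_card]; exact orderOf_dvd_natCard _
  have h3 := Nat.dvd_gcd h2 h1
  rw [(hM.pow_right k : Nat.gcd _ _ = 1), Nat.dvd_one, orderOf_eq_one_iff] at h3
  rwa [← MonoidHom.mem_ker, QuotientGroup.ker_mk'] at h3

theorem ups_two_eq [hp : Fact p.Prime] [Finite G] (h : PLengthLE p 1 G) (S : Sylow p G) :
    (upperPSeries p G 2).1 = pPrimeCore p G ⊔ S := by
  have hidx : (upperPSeries p G 2).1.index.Coprime p := by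
    have := (stepOK_ups (p := p) (G := G) 2).1 (by decide)
    rwa [show (upperPSeries p G (2 + 1)).1 = ⊤ from h, Subgroup.relIndex_top_right] at this
  have hS : (S : Subgroup G) ≤ (upperPSeries p G 2).1 := sylow_le_of_index_coprime _ hidx S
  have hK : pPrimeCore p G ≤ (upperPSeries p G 2).1 := by
    rw [← ups_one]; exact ups_le_succ 1
  apply le_antisymm _ (sup_le hK hS)
  rw [← Subgroup.relIndex_eq_one]
  obtain ⟨n, hn⟩ := (stepOK_ups (p := p) (G := G) 1).2 (by decide)
  rw [ups_one] at hn
  have d1 : (pPrimeCore p G ⊔ S).relIndex (upperPSeries p G 2).1 ∣ p ^ n :=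
    hn ▸ Subgroup.relIndex_dvd_of_le_left _ le_sup_left
  have d2 : (pPrimeCore p G ⊔ S).relIndex (upperPSeries p G 2).1 ∣ (S : Subgroup G).index :=
    (Subgroup.relIndex_dvd_of_le_left _ le_sup_right).trans
      (Dvd.intro _ (Subgroup.relIndex_mul_index hS))
  obtain ⟨j, _, hj⟩ := (Nat.dvd_prime_pow hp.out).mp d1
  rcases Nat.eq_zero_or_pos j with h0 | h0
  · rw [hj, h0, pow_zero]
  · exfalso
    apply S.not_dvd_index
    exact (hj ▸ dvd_pow_self p h0.ne' :
      p ∣ (pPrimeCore p G ⊔ S).relIndex (upperPSeries p G 2).1).trans d2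

/-- Frattini argument in a group of `p`-length one. -/
theorem plen_one_frattini [Fact p.Prime] [Finite G] (h : PLengthLE p 1 G) (S : Sylow p G) :
    Subgroup.normalizer ((S : Subgroup G) : Set G) ⊔ pPrimeCore p G = ⊤ := by
  have h2 := ups_two_eq h S
  have hS : (S : Subgroup G) ≤ (upperPSeries p G 2).1 := h2 ▸ le_sup_right
  have h3 : Subgroup.normalizer ((S : Subgroup G) : Set G) ⊔ (upperPSeries p G 2).1 = ⊤ :=
    Sylow.normalizer_sup_eq_top' S hS
  rw [h2, sup_comm (pPrimeCore p G), ← sup_assoc,
    sup_eq_left.mpr (Subgroup.le_normalizer : (S : Subgroup G) ≤ _)] at h3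
  exact h3

theorem pPrimeCore_inf_sylow [Fact p.Prime] [Finite G] (S : Sylow p G) :
    pPrimeCore p G ⊓ (S : Subgroup G) = ⊥ := by
  apply disjoint_iff.mp
  apply Subgroup.disjoint_of_coprime_natCard
  obtain ⟨n, hn⟩ := IsPGroup.iff_card.mp S.2
  rw [hn]
  exact (Cfsg.Agent.Lib.Helper1.pPrimeCore_coprime p).pow_right n

end Cfsg.Agent.Lib.Helper20
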