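import Cfsg.Agent.Lib.Helper10.Components2

set_option autoImplicit false

namespace Cfsg.Agent.Lib.Helper20

open Subgroup Cfsg.Agent.Lib.Helper10
open scoped commutatorElement

/-- A perfect central extension of a quasisimple group is quasisimple. -/
theorem qs_of_surj_central {K Q : Type*} [Group K] [Group Q] (f : K →* Q)
    (hf : Function.Surjective f) (hker : f.ker ≤ Subgroup.center K) (hK : Group.IsPerfect K)
    (hQ : Cfsg.IsQuasisimple Q) : Cfsg.IsQuasisimple K := by
  have hQnt := qs_nontrivial hQ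
  have : Nontrivial K := hf.nontrivial
  apply isQuasisimple_of_normal_central hK
  intro N hN hNtop
  have hfN : (N.map f).Normal := hN.map f hf
  have h5 : ⁅(⊤ : Subgroup K), (⊤ : Subgroup K)⁆ = ⊤ := hK.commutator_eq_top
  rcases qs_normal_le_center_or_eq_top hQ (N.map f) hfN with h | h
  · have h1 : ⁅N, (⊤ : Subgroup K)⁆ ≤ Subgroup.center K := by
      refine le_trans ?_ hker
      rw [Subgroup.commutator_le]
      intro n hn k _
      rw [MonoidHom.mem_ker, map_commutatorElement]
      have := h (Subgroup.mem_map_of_mem f hn)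
      rw [commutatorElement_eq_one_iff_mul_comm]
      exact (Subgroup.mem_center_iff.mp this (f k)).symm
    have h2 : ⁅⁅N, (⊤ : Subgroup K)⁆, (⊤ : Subgroup K)⁆ = ⊥ := by
      rw [Subgroup.commutator_eq_bot_iff_le_centralizer, Subgroup.coe_top,
        Subgroup.centralizer_univ]
      exact h1
    have h3 : ⁅⁅(⊤ : Subgroup K), N⁆, (⊤ : Subgroup K)⁆ = ⊥ := by
      rw [Subgroup.commutator_comm ⊤ N]; exact h2
    have h4 : ⁅⁅(⊤ : Subgroup K), (⊤ : Subgroup K)⁆, N⁆ = ⊥ :=
      Subgroup.commutator_commutator_eq_bot_of_rotate h3 h2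
    rw [h5, Subgroup.commutator_comm, Subgroup.commutator_eq_bot_iff_le_centralizer,
      Subgroup.coe_top, Subgroup.centralizer_univ] at h4
    exact h4
  · exfalso
    apply hNtop
    have h1 : N ⊔ f.ker = ⊤ := by
      rw [← Subgroup.comap_map_eq, h, Subgroup.comap_top]
    rw [eq_top_iff, ← h5, Subgroup.commutator_le]
    intro a _ b _
    have ha : a ∈ N ⊔ f.ker := h1 ▸ Subgroup.mem_top a
    have hb : b ∈ N ⊔ f.ker := h1 ▸ Subgroup.mem_top b
    obtain ⟨n, hn, z, hz, rfl⟩ := Subgroup.mem_sup_of_normal_right.mp ha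
    obtain ⟨m, hm, w, hw, rfl⟩ := Subgroup.mem_sup_of_normal_right.mp hb
    rw [commutatorElement_mul_central n m z w
      (fun g => Subgroup.mem_center_iff.mp (hker hz) g)
      (fun g => Subgroup.mem_center_iff.mp (hker hw) g)]
    rw [commutatorElement_def]
    have e : n * m * n⁻¹ * m⁻¹ = n * (m * n⁻¹ * m⁻¹) := by group
    rw [e]
    exact mul_mem hn (hN.conj_mem _ (inv_mem hn) m)

end Cfsg.Agent.Lib.Helper20
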